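import Cfsg.Agent.Transfer.AutThree.Quad

/-! The automorphism group of a `2`-group with exactly three involutions is solvable. -/

set_option autoImplicit false

namespace Cfsg.Agent.Transfer.AutThree

open Subgroup hiding commutator_def
open scoped commutatorElement

variable {X : Type*} [Group X] [Finite X]

theorem hom_trivial_of_solvable {L H : Type*} [Group L] [Group H] [Group.IsSolvable H]
    (hL : commutator L = ⊤) (f : L →* H) : ∀ x, f x = 1 := by
  have hs : ∀ n, derivedSeries L n = ⊤ := fun n => by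
    induction n with
    | zero => rfl
    | succ n ih => rw [derivedSeries_succ, ih, ← commutator_def, hL]
  obtain ⟨n, hn⟩ := Group.IsSolvable.solvable (G := H)
  intro x
  have h1 := map_derivedSeries_le_derivedSeries f n (mem_map_of_mem f (hs n ▸ mem_top x))
  rwa [hn, mem_bot] at h1

theorem no_perfect_auto (h2 : IsPGroup 2 X) (h3 : Nat.card {x : X // orderOf x = 2} = 3)
    (L : Subgroup (MulAut X)) (hL : commutator L = ⊤) : L = ⊥ := by
  classical
  haveI : Fact (Nat.Prime 2) := ⟨Nat.prime_two⟩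
  haveI : Finite (MulAut X) := Finite.of_injective (fun φ => φ.toEquiv) fun a b h => MulEquiv.ext
    fun x => Equiv.congr_fun h x
  haveI : Group.IsNilpotent X := h2.isNilpotent
  by_contra hne
  -- involutions are fixed
  have hfixinv : ∀ φ ∈ L, ∀ x : X, orderOf x = 2 → φ x = x := by
    let θ : L →* Equiv.Perm {x : X // orderOf x = 2} :=
      { toFun := fun φ => Equiv.Perm.subtypePerm (φ : MulAut X).toEquiv (fun x => by
          show orderOf ((φ : MulAut X) x) = 2 ↔ _
          rw [MulEquiv.orderOf_eq])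
        map_one' := by
          ext x
          simp
        map_mul' := fun g h => by
          ext x
          rfl }
    intro φ hφ x hx
    have := perm_trivial_of_le_four hL θ (by omega) ⟨φ, hφ⟩
    exact congrArg Subtype.val (Equiv.congr_fun this ⟨x, hx⟩)
  let Fx : Subgroup X :=
    { carrier := {x | ∀ φ ∈ L, φ x = x}
      one_mem' := fun φ _ => map_one φ
      mul_mem' := fun ha hb φ hφ => by rw [map_mul, ha φ hφ, hb φ hφ]
      inv_mem' := fun ha φ hφ => by rw [map_inv, ha φ hφ] }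
  let Inv : Subgroup X → Prop := fun Q => ∀ φ ∈ L, ∀ x ∈ Q, φ x ∈ Q
  let T : Set (Subgroup X) := {Q | Inv Q ∧ ¬ Q ≤ Fx}
  have hT : (⊤ : Subgroup X) ∈ T := by
    refine ⟨fun φ _ x _ => mem_top _, fun h => hne (eq_bot_iff.2 fun φ hφ => ?_)⟩
    rw [mem_bot]
    exact MulEquiv.ext fun x => h (mem_top x) φ hφ
  obtain ⟨Q, ⟨hQi, hQn⟩, hQm⟩ := T.toFinite.exists_minimal ⟨⊤, hT⟩
  have hmin : ∀ W : Subgroup X, Inv W → W ≤ Q → W = Q ∨ W ≤ Fx := fun W hW hWQ => by
    by_cases h : W ≤ Fx
    · exact Or.inr h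
    · exact Or.inl (le_antisymm hWQ (hQm ⟨hW, h⟩ hWQ))
  have hclosure : ∀ S : Set X, (∀ φ ∈ L, ∀ x ∈ S, φ x ∈ closure S) → Inv (closure S) := by
    intro S hS φ hφ x hx
    induction hx using closure_induction with
    | mem y hy => exact hS φ hφ y hy
    | one => rw [map_one]; exact one_mem _
    | mul a b _ _ ha hb => rw [map_mul]; exact mul_mem ha hb
    | inv a _ ha => rw [map_inv]; exact inv_mem ha
  -- `Q = [Q, L]`
  let S : Set X := {y | ∃ φ ∈ L, ∃ x ∈ Q, y = x⁻¹ * φ x}
  have hD : closure S = Q := by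
    have hle : closure S ≤ Q := (closure_le _).2 fun y ⟨φ, hφ, x, hx, hy⟩ => by
      rw [hy]
      exact mul_mem (inv_mem hx) (hQi φ hφ x hx)
    have hinvS : Inv (closure S) := hclosure S fun ψ hψ y ⟨φ, hφ, x, hx, hy⟩ => by
      refine subset_closure ⟨ψ * φ * ψ⁻¹, mul_mem (mul_mem hψ hφ) (inv_mem hψ), ψ x, hQi ψ hψ x hx, ?_⟩
      rw [hy, map_mul, map_inv]
      simp [MulAut.mul_apply]
    rcases hmin _ hinvS hle with h | h
    · exact h
    · refine absurd (fun x hx φ hφ => ?_) hQn
      let d : L →* X :=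
        { toFun := fun ψ => x⁻¹ * (ψ : MulAut X) x
          map_one' := by simp
          map_mul' := fun a b => by
            have hb : (a : MulAut X) (x⁻¹ * (b : MulAut X) x) = x⁻¹ * (b : MulAut X) x :=
              h (subset_closure ⟨b, b.2, x, hx, rfl⟩) a a.2
            rw [map_mul, map_inv] at hb
            show x⁻¹ * ((a : MulAut X) * b) x = _
            rw [MulAut.mul_apply, ← hb, ← mul_assoc, mul_assoc x⁻¹, mul_inv_cancel, mul_one] }
      have h1 : x⁻¹ * φ x = 1 := hom_trivial_of_solvable hL d ⟨φ, hφ⟩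
      exact (inv_mul_eq_one.1 h1).symm
  -- squares are fixed
  have hQne : Q ≠ ⊥ := fun h => hQn (h ▸ bot_le)
  have hsqF : ∀ x ∈ Q, x ^ 2 ∈ Fx := by
    let Sq : Set X := {y | ∃ x ∈ Q, y = x ^ 2}
    have hle : closure Sq ≤ Q := (closure_le _).2 fun y ⟨x, hx, hy⟩ => hy ▸ pow_mem hx 2
    rcases hmin _ (hclosure Sq fun φ hφ y ⟨x, hx, hy⟩ => subset_closure ⟨φ x, hQi φ hφ x hx, by
        rw [hy, map_pow]⟩) hle with h | h
    · exfalso
      have hQp : IsPGroup 2 Q := h2.to_subgroup Q
      obtain ⟨n, hn⟩ := IsPGroup.iff_card.1 hQp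
      cases n with
      | zero => exact hQne (card_eq_one.1 hn)
      | succ n =>
        obtain ⟨M, hM⟩ := Sylow.exists_subgroup_card_pow_prime (G := Q) 2 (n := n)
          (by rw [hn]; exact pow_dvd_pow 2 n.le_succ)
        have hidx : M.index = 2 := by
          have := M.card_mul_index
          rw [hM, hn, pow_succ] at this
          exact Nat.eq_of_mul_eq_mul_left (by positivity) this
        have hMQ : M.map Q.subtype = Q := le_antisymm (map_subtype_le M) (by
          conv_lhs => rw [← h]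
          refine (closure_le _).2 ?_
          rintro y ⟨x, hx, rfl⟩
          exact ⟨_, sq_mem_of_index_two hidx ⟨x, hx⟩, rfl⟩)
        have hMt : M = ⊤ := map_injective Q.subtype_injective (by
          rw [hMQ, ← MonoidHom.range_eq_map, range_subtype])
        rw [hMt, index_top] at hidx
        omega
    · exact fun x hx => h (subset_closure ⟨x, hx, rfl⟩)
  have hcF : ∀ x ∈ Q, ∀ y ∈ Q, ⁅x, y⁆ ∈ Fx := by
    intro x hx y hy
    rw [show ⁅x, y⁆ = (x * y) ^ 2 * (y⁻¹ * x⁻¹ * y) ^ 2 * (y⁻¹) ^ 2 by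
      rw [commutatorElement_def, pow_two, pow_two, pow_two]; group]
    exact mul_mem (mul_mem (hsqF _ (mul_mem hx hy))
      (hsqF _ (mul_mem (mul_mem (inv_mem hy) (inv_mem hx)) hy))) (hsqF _ (inv_mem hy))
  -- fixed points in `Q` are central
  have hcen : ∀ t ∈ Q, t ∈ Fx → ∀ y ∈ Q, t * y = y * t := by
    intro t ht htF y hy
    rw [← hD] at hy
    induction hy using closure_induction with
    | mem z hz =>
      obtain ⟨φ, hφ, x, hx, rfl⟩ := hz
      have h1 : φ ⁅t, x⁆ = ⁅t, x⁆ := hcF t ht x hx φ hφ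
      rw [map_commutatorElement, htF φ hφ, commutatorElement_def, commutatorElement_def] at h1
      have h2 : t * φ x * t⁻¹ = t * x * t⁻¹ * x⁻¹ * φ x := by
        rw [← h1]; group
      calc t * (x⁻¹ * φ x) = (t * x * t⁻¹)⁻¹ * (t * φ x * t⁻¹) * t := by group
        _ = x⁻¹ * φ x * t := by rw [h2]; group
    | one => rw [one_mul, mul_one]
    | mul a b _ _ ha hb => rw [← mul_assoc, ha, mul_assoc, hb, mul_assoc]
    | inv a _ ha => exact (Commute.inv_right (show Commute t a from ha)).eq
  -- the two quotients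
  let N : Subgroup Q := Fx.subgroupOf Q
  have hNcen : ∀ t : N, ∀ y : Q, (t : Q) * y = y * t := fun t y =>
    Subtype.ext (hcen _ t.1.2 t.2 _ y.2)
  haveI hNn : N.Normal := ⟨fun t ht g => by
    rw [← hNcen ⟨t, ht⟩ g, mul_inv_cancel_right]
    exact ht⟩
  let mk : Q →* Q ⧸ N := QuotientGroup.mk' N
  have hmk : ∀ a : Q, mk a = 1 ↔ (a : X) ∈ Fx := fun a => (QuotientGroup.eq_one_iff a).trans mem_subgroupOf
  letI : CommGroup (Q ⧸ N) := { (inferInstance : Group (Q ⧸ N)) with
    mul_comm := fun a b => by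
      obtain ⟨a, rfl⟩ := QuotientGroup.mk'_surjective N a
      obtain ⟨b, rfl⟩ := QuotientGroup.mk'_surjective N b
      rw [← map_mul, ← map_mul]
      refine QuotientGroup.eq.2 (mem_subgroupOf.2 ?_)
      have h1 := hcF _ (inv_mem b.2) _ (inv_mem a.2)
      rw [commutatorElement_def, inv_inv, inv_inv] at h1
      push_cast
      simpa [mul_assoc] using h1 }
  let sq : N →* N :=
    { toFun := fun t => t ^ 2
      map_one' := one_pow 2
      map_mul' := fun a b => (show Commute a b from Subtype.ext (hNcen a b)).mul_pow 2 }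
  haveI hSn : sq.range.Normal := ⟨fun t ht g => by
    have hc : g * t = t * g := Subtype.ext (hNcen g t)
    rw [hc, mul_inv_cancel_right]
    exact ht⟩
  letI : CommGroup (N ⧸ sq.range) := { (inferInstance : Group (N ⧸ sq.range)) with
    mul_comm := fun a b => by
      obtain ⟨a, rfl⟩ := QuotientGroup.mk'_surjective sq.range a
      obtain ⟨b, rfl⟩ := QuotientGroup.mk'_surjective sq.range b
      rw [← map_mul, ← map_mul]
      exact congrArg _ (Subtype.ext (hNcen a b)) }
  let mkU : N →* N ⧸ sq.range := QuotientGroup.mk' sq.range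
  have hmkU : ∀ t : N, mkU t = 1 ↔ ∃ s : N, s ^ 2 = t := fun t =>
    (QuotientGroup.eq_one_iff t).trans MonoidHom.mem_range
  have hV : ∀ v : Q ⧸ N, v ^ 2 = 1 := by
    intro v
    obtain ⟨a, rfl⟩ := QuotientGroup.mk'_surjective N v
    show mk a ^ 2 = 1
    rw [← map_pow, hmk]
    exact hsqF _ a.2
  have hU : ∀ u : N ⧸ sq.range, u ^ 2 = 1 := by
    intro u
    obtain ⟨a, rfl⟩ := QuotientGroup.mk'_surjective sq.range u
    show mkU a ^ 2 = 1
    rw [← map_pow, hmkU]
    exact ⟨a, rfl⟩
  have hU4 : Nat.card (N ⧸ sq.range) ≤ 4 := by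
    have h1 := sq.range.card_mul_index
    rw [← index_ker sq, index_eq_card sq.range] at h1
    have h2 := sq.ker.card_mul_index
    have h4 : Nat.card sq.ker ≤ 4 := by
      let g : sq.ker → Option {x : X // orderOf x = 2} := fun t =>
        if h : orderOf ((t.1 : Q) : X) = 2 then some ⟨_, h⟩ else none
      have hg : Function.Injective g := by
        have hcases : ∀ t : sq.ker, ((t.1 : Q) : X) = 1 ∨ orderOf ((t.1 : Q) : X) = 2 := by
          intro t
          refine Classical.or_iff_not_imp_left.2 fun h => orderOf_eq_prime ?_ h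
          have := t.2
          rw [MonoidHom.mem_ker] at this
          exact congrArg (fun z : N => ((z : Q) : X)) this
        intro s t hst
        have h0 : ∀ {a b : sq.ker}, ((a.1 : Q) : X) = ((b.1 : Q) : X) → a = b :=
          fun h => Subtype.ext (Subtype.ext (Subtype.ext h))
        rcases hcases s with hs | hs <;> rcases hcases t with ht | ht
        · exact h0 (hs.trans ht.symm)
        · simp only [g] at hst
          rw [dif_neg (by rw [hs, orderOf_one]; norm_num), dif_pos ht] at hst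
          exact absurd hst.symm (Option.some_ne_none _)
        · simp only [g] at hst
          rw [dif_pos hs, dif_neg (by rw [ht, orderOf_one]; norm_num)] at hst
          exact absurd hst (Option.some_ne_none _)
        · simp only [g, dif_pos hs, dif_pos ht, Option.some.injEq, Subtype.mk.injEq] at hst
          exact h0 hst
      refine (Nat.card_le_card_of_injective g hg).trans ?_
      rw [Finite.card_option, h3]
    have hpos : 0 < sq.ker.index := Nat.pos_of_ne_zero index_ne_zero_of_finite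
    have h5 : sq.ker.index * Nat.card (N ⧸ sq.range) = sq.ker.index * Nat.card sq.ker := by
      rw [h1, ← h2]; ring
    rw [Nat.eq_of_mul_eq_mul_left hpos h5]
    exact h4
  let sqv : Q → N := fun a => ⟨a ^ 2, mem_subgroupOf.2 (by push_cast; exact hsqF _ a.2)⟩
  have hq_well : ∀ a a' : Q, mk a = mk a' → mkU (sqv a) = mkU (sqv a') := by
    intro a a' h
    have ht : a⁻¹ * a' ∈ N := QuotientGroup.eq.1 h
    obtain ⟨t, ht', rfl⟩ : ∃ t ∈ N, a' = a * t := ⟨_, ht, (mul_inv_cancel_left a a').symm⟩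
    have h1 : sqv (a * t) = sqv a * (⟨t, ht'⟩ : N) ^ 2 := Subtype.ext (by
      show (a * t) ^ 2 = a ^ 2 * t ^ 2
      exact (show Commute a t from (hNcen ⟨t, ht'⟩ a).symm).mul_pow 2)
    rw [h1, map_mul, map_pow, hU, mul_one]
  let q : Q ⧸ N → N ⧸ sq.range := fun v => mkU (sqv v.out)
  have hqa : ∀ a : Q, q (mk a) = mkU (sqv a) := fun a => hq_well _ _ (QuotientGroup.out_eq' _)
  let cc : Q → Q → N := fun a b => ⟨⁅a, b⁆, mem_subgroupOf.2 (hcF _ a.2 _ b.2)⟩
  have hmul : ∀ a b : Q, sqv (a * b) = sqv a * sqv b * cc b a := by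
    intro a b
    apply Subtype.ext
    show (a * b) ^ 2 = a ^ 2 * b ^ 2 * ⁅b, a⁆
    have hz := hNcen (cc b a)
    calc (a * b) ^ 2 = a * (⁅b, a⁆ * (a * b)) * b := by rw [commutatorElement_def, pow_two]; group
      _ = ⁅b, a⁆ * a * (a * b) * b := by rw [← mul_assoc a ⁅b, a⁆, ← hz a]
      _ = ⁅b, a⁆ * (a ^ 2 * b ^ 2) := by rw [pow_two, pow_two]; group
      _ = _ := hz _
  have hbil : ∀ a b c : Q, cc (a * b) c = cc a c * cc b c := by
    intro a b c
    apply Subtype.ext
    show ⁅a * b, c⁆ = ⁅a, c⁆ * ⁅b, c⁆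
    have hz := hNcen (cc b c)
    calc ⁅a * b, c⁆ = a * ⁅b, c⁆ * (c * a⁻¹ * c⁻¹) := by simp only [commutatorElement_def]; group
      _ = ⁅b, c⁆ * a * (c * a⁻¹ * c⁻¹) := by rw [← hz a]
      _ = ⁅b, c⁆ * ⁅a, c⁆ := by simp only [commutatorElement_def]; group
      _ = _ := hz _
  let b : Q ⧸ N → Q ⧸ N → N ⧸ sq.range := fun x y => q (x * y) * q x * q y
  have hsq2 : ∀ u : N ⧸ sq.range, u * u = 1 := fun u => by rw [← pow_two, hU]
  have hcanc : ∀ α β γ : N ⧸ sq.range, α * β * γ * α * β = γ := fun α β γ => by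
    calc α * β * γ * α * β = (α * α) * (β * β) * γ := by ac_rfl
      _ = γ := by rw [hsq2, hsq2, one_mul, one_mul]
  have hba : ∀ a a' : Q, b (mk a) (mk a') = mkU (cc a' a) := fun a a' => by
    show q (mk a * mk a') * q (mk a) * q (mk a') = _
    rw [← map_mul mk, hqa, hqa, hqa, hmul, map_mul, map_mul, hcanc]
  let res : L → (Q →* Q) := fun φ =>
    { toFun := fun a => ⟨(φ : MulAut X) a, hQi _ φ.2 _ a.2⟩
      map_one' := Subtype.ext (map_one (φ : MulAut X))
      map_mul' := fun a a' => Subtype.ext (map_mul (φ : MulAut X) _ _) }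
  have hresN : ∀ φ, N ≤ N.comap (res φ) := fun φ t ht => by
    have h0 : ((t : Q) : X) ∈ Fx := ht
    show (φ : MulAut X) (t : X) ∈ Fx
    rw [h0 _ φ.2]
    exact h0
  let act : L → (Q ⧸ N →* Q ⧸ N) := fun φ => QuotientGroup.map N N (res φ) (hresN φ)
  have hact : ∀ φ a, act φ (mk a) = mk (res φ a) := fun _ _ => rfl
  have hact_mul : ∀ φ ψ v, act φ (act ψ v) = act (φ * ψ) v := fun φ ψ v => by
    obtain ⟨a, rfl⟩ := QuotientGroup.mk'_surjective N v
    rfl
  have hact_one : ∀ v, act 1 v = v := fun v => by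
    obtain ⟨a, rfl⟩ := QuotientGroup.mk'_surjective N v
    rfl
  let ρ : L →* MulAut (Q ⧸ N) :=
    { toFun := fun φ =>
        { toFun := act φ
          invFun := act φ⁻¹
          left_inv := fun v => by rw [hact_mul, inv_mul_cancel, hact_one]
          right_inv := fun v => by rw [hact_mul, mul_inv_cancel, hact_one]
          map_mul' := map_mul (act φ) }
      map_one' := MulEquiv.ext hact_one
      map_mul' := fun φ ψ => MulEquiv.ext fun v => (hact_mul φ ψ v).symm }
  refine no_perfect_isometries hL hV hU hU4 q b ?_ ?_ ?_ ?_ ρ ?_ ?_ ?_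
  · rw [← map_one mk, hqa, show sqv 1 = 1 from Subtype.ext (one_pow 2), map_one]
  · intro x y
    calc q (x * y) = (q x * q x) * (q y * q y) * q (x * y) := by rw [hsq2, hsq2, one_mul, one_mul]
      _ = _ := by show _ = q x * q y * (q (x * y) * q x * q y); ac_rfl
  · intro x y z
    obtain ⟨x, rfl⟩ := QuotientGroup.mk'_surjective N x
    obtain ⟨y, rfl⟩ := QuotientGroup.mk'_surjective N y
    obtain ⟨z, rfl⟩ := QuotientGroup.mk'_surjective N z
    show b (mk x) (mk y * mk z) = b (mk x) (mk y) * b (mk x) (mk z)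
    rw [← map_mul mk, hba, hba, hba, hbil, map_mul]
  · intro v hv
    obtain ⟨a, rfl⟩ := QuotientGroup.mk'_surjective N v
    rw [show QuotientGroup.mk' N = mk from rfl, hqa, hmkU] at hv
    obtain ⟨s, hs⟩ := hv
    have hs' : (s : Q) ^ 2 = a ^ 2 := congrArg Subtype.val hs
    have hc : Commute a (s : Q)⁻¹ := (show Commute a (s : Q) from (hNcen s a).symm).inv_right
    have he : (a * (s : Q)⁻¹) ^ 2 = 1 := by
      rw [hc.mul_pow, inv_pow, hs', mul_inv_cancel]
    have hF : ((a * (s : Q)⁻¹ : Q) : X) ∈ Fx := by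
      by_cases h1 : a * (s : Q)⁻¹ = 1
      · rw [h1]; exact one_mem Fx
      · exact fun φ hφ => hfixinv φ hφ _ (orderOf_eq_prime (congrArg Subtype.val he)
          fun h => h1 (Subtype.ext h))
    refine (hmk a).2 ?_
    have hsF : ((s : Q) : X) ∈ Fx := s.2
    have h4 := mul_mem hF hsF
    push_cast at h4
    rwa [inv_mul_cancel_right] at h4
  · intro φ v
    obtain ⟨a, rfl⟩ := QuotientGroup.mk'_surjective N v
    show q (act φ (mk a)) = q (mk a)
    rw [hact, hqa, hqa]
    refine congrArg mkU (Subtype.ext (Subtype.ext ?_))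
    show ((φ : MulAut X) (a : X)) ^ 2 = (a : X) ^ 2
    rw [← map_pow]
    exact hsqF _ a.2 _ φ.2
  · intro W hW
    let W' : Subgroup X := (W.comap mk).map Q.subtype
    have hWi : Inv W' := by
      rintro φ hφ _ ⟨a, ha, rfl⟩
      exact ⟨res ⟨φ, hφ⟩ a, hW ⟨φ, hφ⟩ _ ha, rfl⟩
    rcases hmin W' hWi (map_subtype_le _) with h | h
    · right
      rw [eq_top_iff]
      intro v _
      obtain ⟨a, rfl⟩ := QuotientGroup.mk'_surjective N v
      have h1 : (a : X) ∈ W' := h.symm ▸ a.2
      obtain ⟨a', ha', he⟩ := h1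
      rw [← Q.subtype_injective he]
      exact ha'
    · left
      rw [eq_bot_iff]
      intro v hv
      obtain ⟨a, rfl⟩ := QuotientGroup.mk'_surjective N v
      exact (hmk a).2 (h ⟨a, hv, rfl⟩)
  · by_contra hcon
    push Not at hcon
    refine hQn fun y hy => ?_
    have hall : closure S ≤ Fx := (closure_le _).2 fun z ⟨φ, hφ, x, hx, hz⟩ => by
      have h1 := hcon ⟨φ, hφ⟩ (mk ⟨x, hx⟩)
      have h2 : mk (res ⟨φ, hφ⟩ ⟨x, hx⟩) = mk ⟨x, hx⟩ := h1
      have h3 : mk (⟨x, hx⟩⁻¹ * res ⟨φ, hφ⟩ ⟨x, hx⟩) = 1 := by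
        rw [map_mul, h2, map_inv, inv_mul_cancel]
      rw [hz]
      exact (hmk _).1 h3
    exact hall (hD.symm ▸ hy)

theorem aut_solvable (h2 : IsPGroup 2 X) (h3 : Nat.card {x : X // orderOf x = 2} = 3) :
    Group.IsSolvable (MulAut X) := by
  haveI : Finite (MulAut X) := Finite.of_injective (fun φ => φ.toEquiv) fun a b h => MulEquiv.ext
    fun x => Equiv.congr_fun h x
  exact solvable_of_no_perfect (no_perfect_auto h2 h3)

end Cfsg.Agent.Transfer.AutThree
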