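import Cfsg.Agent.Transfer.AutThree.Small
import Cfsg.Agent.FGS2.RankExpFour
import Mathlib.GroupTheory.SpecificGroups.Alternating

/-! Perfect groups of isometries of anisotropic quadratic maps with values in a group of order at most
four. -/

set_option autoImplicit false

namespace Cfsg.Agent.Transfer.AutThree

open Subgroup hiding commutator_def
open MvPolynomial

theorem quad_card_le {V U : Type*} [CommGroup V] [CommGroup U] [Finite V] [Finite U]
    (hV : ∀ x : V, x ^ 2 = 1) (hU : ∀ u : U, u ^ 2 = 1) (q : V → U) (b : V → V → U) (hq1 : q 1 = 1)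
    (hq : ∀ x y, q (x * y) = q x * q y * b x y) (hb : ∀ x y z, b x (y * z) = b x y * b x z)
    (haniso : ∀ x, q x = 1 → x = 1) : Nat.card V ≤ Nat.card U ^ 2 := by
  classical
  haveI : Fact (Nat.Prime 2) := ⟨Nat.prime_two⟩
  obtain ⟨r, c, hc, hr⟩ := Cfsg.Agent.FGS2.RankExpFour.exists_coord V mul_comm hV
  obtain ⟨s, d, hd, hs⟩ := Cfsg.Agent.FGS2.RankExpFour.exists_coord U mul_comm hU
  rw [hr, hs, ← pow_mul]
  refine Nat.pow_le_pow_right (by norm_num) ?_
  by_contra hlt
  have hc1 : c 1 = 0 := by
    have := hc 1 1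
    rw [one_mul] at this
    exact left_eq_add.1 this
  have hd1 : d 1 = 0 := by
    have := hd 1 1
    rw [one_mul] at this
    exact left_eq_add.1 this
  have hcs : ∀ v w, c.symm (v + w) = c.symm v * c.symm w := fun v w => by
    apply c.injective
    rw [hc]
    simp
  choose f hfdeg hfev using fun i : Fin s =>
    Cfsg.Agent.FGS2.RankExpFour.exists_poly (fun v => d (q (c.symm v)) i)
      (by show d (q (c.symm 0)) i = 0; rw [← hc1, c.symm_apply_apply, hq1, hd1]; rfl)
      (fun v w => d (b (c.symm v) (c.symm w)) i)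
      (fun v w => by show d (q (c.symm (v + w))) i = _; rw [hcs, hq, hd, hd]; rfl)
      (fun v w z => by show d (b (c.symm v) (c.symm (w + z))) i = _; rw [hcs, hb, hd]; rfl)
  have hdvd := char_dvd_card_solutions_of_fintype_sum_lt 2 (f := f) (by
    refine lt_of_le_of_lt (Finset.sum_le_sum fun i _ => hfdeg i) ?_
    simp only [Finset.sum_const, Finset.card_univ, Fintype.card_fin, smul_eq_mul]
    omega)
  rw [Fintype.card_eq_nat_card] at hdvd
  have h1 : Nat.card {x : Fin r → ZMod 2 // ∀ i, eval x (f i) = 0} = 1 := by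
    rw [Nat.card_eq_one_iff_exists]
    refine ⟨⟨0, fun i => by rw [hfev, ← hc1, c.symm_apply_apply, hq1, hd1]; rfl⟩,
      fun x => Subtype.ext ?_⟩
    have h2 : q (c.symm x.1) = 1 := by
      apply d.injective
      rw [hd1]
      funext i
      exact (hfev i x.1).symm.trans (x.2 i)
    have h3 := congrArg c (haniso _ h2)
    rwa [c.apply_symm_apply, hc1] at h3
  rw [h1] at hdvd
  omega

theorem no_perfect_isometries {V U L : Type*} [CommGroup V] [CommGroup U] [Group L] [Finite V] [Finite U]
    [Finite L] (hL : commutator L = ⊤) (hV : ∀ x : V, x ^ 2 = 1) (hU : ∀ u : U, u ^ 2 = 1)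
    (hU4 : Nat.card U ≤ 4) (q : V → U) (b : V → V → U) (hq1 : q 1 = 1)
    (hq : ∀ x y, q (x * y) = q x * q y * b x y) (hb : ∀ x y z, b x (y * z) = b x y * b x z)
    (haniso : ∀ x, q x = 1 → x = 1) (ρ : L →* MulAut V) (hinv : ∀ g x, q (ρ g x) = q x)
    (hirr : ∀ W : Subgroup V, (∀ g, ∀ x ∈ W, ρ g x ∈ W) → W = ⊥ ∨ W = ⊤)
    (hnt : ∃ g x, ρ g x ≠ x) : False := by
  classical
  obtain ⟨g0, x0, hgx⟩ := hnt
  -- a point orbit forces five points
  have hfix : ∀ x, (∀ g, ρ g x = x) → x = 1 := by
    intro x hx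
    let W : Subgroup V :=
      { carrier := {y | ∀ g, ρ g y = y}
        one_mem' := fun g => map_one _
        mul_mem' := fun ha hb g => by rw [map_mul, ha g, hb g]
        inv_mem' := fun ha g => by rw [map_inv, ha g] }
    rcases hirr W (fun g y hy k => by rw [hy g, hy k]) with h | h
    · have hxW : x ∈ W := hx
      rwa [h, mem_bot] at hxW
    · have hxW : x0 ∈ W := h ▸ mem_top x0
      exact absurd (hxW g0) hgx
  let θ : ∀ u : U, L →* Equiv.Perm {x : V // q x = u} := fun u =>
    { toFun := fun g => Equiv.Perm.subtypePerm (ρ g).toEquiv (fun x => by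
        show q (ρ g x) = u ↔ q x = u
        rw [hinv])
      map_one' := by
        ext x
        simp
      map_mul' := fun g h => by
        ext x
        simp only [map_mul]
        rfl }
  have hfive : ∀ u : U, u ≠ 1 → ∀ x, q x = u → 5 ≤ Nat.card {x : V // q x = u} := by
    intro u hu x hx
    by_contra hlt
    have h1 : x = 1 := hfix x fun g => by
      have h2 : θ u g = 1 := perm_trivial_of_le_four hL (θ u) (by omega) g
      exact congrArg Subtype.val (Equiv.congr_fun h2 ⟨x, hx⟩)
    exact hu (by rw [← hx, h1, hq1])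
  have hbig : 5 < Nat.card V := by
    have h5 := hfive (q x0) (fun h => hgx (by rw [haniso x0 h, map_one])) x0 rfl
    have hlt : Nat.card {x : V // q x = q x0} < Nat.card V :=
      Finite.card_subtype_lt (x := (1 : V)) (fun h => hgx (by
        rw [hq1] at h
        rw [haniso x0 h.symm, map_one]))
    omega
  -- the quadratic map attains every value
  have hsurj : ∀ u : U, ∃ x, q x = u := by
    intro w
    by_contra hw
    push Not at hw
    have hw1 : w ≠ 1 := fun h => hw 1 (h ▸ hq1)
    let π := QuotientGroup.mk' (Subgroup.zpowers w)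
    have hcard : Nat.card (U ⧸ Subgroup.zpowers w) ≤ 2 := by
      have h1 := (Subgroup.zpowers w).card_mul_index
      rw [Nat.card_zpowers, orderOf_eq_prime (hU w) hw1] at h1
      rw [← index_eq_card]
      omega
    have h2 := quad_card_le hV (U := U ⧸ Subgroup.zpowers w) (fun v => by
      obtain ⟨v, rfl⟩ := QuotientGroup.mk'_surjective _ v
      rw [← map_pow, hU, map_one]) (fun x => π (q x)) (fun x y => π (b x y))
      (by show π (q 1) = 1; rw [hq1, map_one])
      (fun x y => by show π (q (x * y)) = π (q x) * π (q y) * π (b x y); rw [hq, map_mul, map_mul])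
      (fun x y z => by show π (b x (y * z)) = π (b x y) * π (b x z); rw [hb, map_mul])
      (fun x hx => by
        obtain ⟨k, hk⟩ := mem_zpowers_iff.1 ((QuotientGroup.eq_one_iff (q x)).1 hx)
        refine haniso x ?_
        rcases Int.even_or_odd k with ⟨m, hm⟩ | ⟨m, hm⟩
        · rw [← hk, hm, ← two_mul, zpow_mul, zpow_ofNat, hU, one_zpow]
        · refine absurd hk.symm ?_
          rw [hm, zpow_add, zpow_mul, zpow_ofNat, hU, one_zpow, one_mul, zpow_one]
          exact hw x)
    have h3 := Nat.pow_le_pow_left hcard 2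
    omega
  have hV16 : Nat.card V ≤ 16 := by
    have h1 := quad_card_le hV hU q b hq1 hq hb haniso
    have h2 := Nat.pow_le_pow_left hU4 2
    omega
  -- hence there are four values, and three classes of five points
  haveI : Fintype U := Fintype.ofFinite U
  haveI : Fintype V := Fintype.ofFinite V
  have hUU : 4 ≤ Nat.card U := by
    by_contra hlt
    have h1 := quad_card_le hV hU q b hq1 hq hb haniso
    obtain ⟨s, _, _, hs⟩ := Cfsg.Agent.FGS2.RankExpFour.exists_coord U mul_comm hU
    have h2 : s ≤ 1 := by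
      by_contra hs2
      have := Nat.pow_le_pow_right (show 0 < 2 by norm_num) (show 2 ≤ s by omega)
      omega
    have h3 : Nat.card U ≤ 2 := by
      rw [hs]
      exact (Nat.pow_le_pow_right (by norm_num) h2).trans_eq (pow_one 2)
    have h4 := Nat.pow_le_pow_left h3 2
    omega
  have hsum : Nat.card V = ∑ u : U, Nat.card {x : V // q x = u} := by
    rw [← Nat.card_sigma]
    exact Nat.card_congr (Equiv.sigmaFiberEquiv q).symm
  have hone : Nat.card {x : V // q x = 1} = 1 := by
    rw [Nat.card_eq_one_iff_exists]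
    exact ⟨⟨1, hq1⟩, fun x => Subtype.ext (haniso _ x.2)⟩
  rw [← Finset.add_sum_erase _ _ (Finset.mem_univ (1 : U)), hone] at hsum
  have hlow : ∀ v ∈ Finset.univ.erase (1 : U), 5 ≤ Nat.card {x : V // q x = v} := by
    intro v hv
    obtain ⟨x, hx⟩ := hsurj v
    exact hfive v (Finset.ne_of_mem_erase hv) x hx
  have hcls : ∀ v : U, v ≠ 1 → Nat.card {x : V // q x = v} = 5 := by
    intro v hv
    refine le_antisymm ?_ (hlow v (Finset.mem_erase.2 ⟨hv, Finset.mem_univ _⟩))
    have hv' : v ∈ Finset.univ.erase (1 : U) := Finset.mem_erase.2 ⟨hv, Finset.mem_univ _⟩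
    rw [← Finset.add_sum_erase _ _ hv'] at hsum
    have h2 := Finset.card_nsmul_le_sum ((Finset.univ.erase (1 : U)).erase v)
      (fun x => Nat.card {y : V // q y = x}) 5 (fun x hx => hlow x (Finset.mem_of_mem_erase hx))
    have h3 : 2 ≤ ((Finset.univ.erase (1 : U)).erase v).card := by
      rw [Finset.card_erase_of_mem hv', Finset.card_erase_of_mem (Finset.mem_univ _), Finset.card_univ,
        ← Nat.card_eq_fintype_card]
      omega
    simp only [smul_eq_mul] at h2
    omega
  have hu : q x0 ≠ 1 := fun h => hgx (by rw [haniso x0 h, map_one])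
  set u := q x0 with hudef
  have h5 := hcls u hu
  let E := {x : V // q x = u}
  have hE5 : Nat.card E = 5 := h5
  haveI : Nontrivial E := Finite.one_lt_card_iff_nontrivial.1 (by omega)
  -- the range is the alternating group
  have hle : (θ u).range ≤ alternatingGroup E := by
    rintro _ ⟨g, rfl⟩
    exact Abelianization.commutator_subset_ker (Equiv.Perm.sign.comp (θ u)) (hL ▸ mem_top g)
  have hrange : (θ u).range = alternatingGroup E := by
    refine eq_of_le_of_card_ge hle ?_
    by_contra hlt
    have halt : Nat.card (alternatingGroup E) = 60 := by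
      rw [nat_card_alternatingGroup, hE5]
      rfl
    have : Nat.card (θ u).range < 60 := lt_of_lt_of_eq (not_le.1 hlt) halt
    have h1 := hom_trivial_of_small hL (θ u) this
    refine hu (?_ : u = 1)
    rw [hudef, hfix x0 fun g => congrArg Subtype.val (Equiv.congr_fun (h1 g) ⟨x0, hudef.symm⟩), hq1]
  let e : Fin 5 ≃ E := (Finite.equivFinOfCardEq hE5).symm
  have hcyc : ∀ i j k : Fin 5, i ≠ j → i ≠ k → j ≠ k → ∃ g,
      ρ g (e i).1 = (e j).1 ∧ ρ g (e j).1 = (e k).1 ∧ ρ g (e k).1 = (e i).1 ∧
      ∀ l, l ≠ i → l ≠ j → l ≠ k → ρ g (e l).1 = (e l).1 := by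
    intro i j k hij hik hjk
    have hij' : e i ≠ e j := e.injective.ne hij
    have hik' : e i ≠ e k := e.injective.ne hik
    have hjk' : e j ≠ e k := e.injective.ne hjk
    have hmem : Equiv.swap (e i) (e k) * Equiv.swap (e i) (e j) ∈ (θ u).range := by
      rw [hrange]
      exact (Equiv.Perm.isThreeCycle_swap_mul_swap_same hik' hij' hjk'.symm).mem_alternatingGroup
    obtain ⟨g, hg⟩ := hmem
    have hval : ∀ l, ρ g (e l).1 = ((Equiv.swap (e i) (e k) * Equiv.swap (e i) (e j)) (e l)).1 := by
      intro l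
      rw [← hg]
      rfl
    refine ⟨g, ?_, ?_, ?_, fun l hli hlj hlk => ?_⟩
    · rw [hval, Equiv.Perm.mul_apply, Equiv.swap_apply_left,
        Equiv.swap_apply_of_ne_of_ne hij'.symm hjk']
    · rw [hval, Equiv.Perm.mul_apply, Equiv.swap_apply_right, Equiv.swap_apply_left]
    · rw [hval, Equiv.Perm.mul_apply, Equiv.swap_apply_of_ne_of_ne hik'.symm hjk'.symm,
        Equiv.swap_apply_right]
    · rw [hval, Equiv.Perm.mul_apply,
        Equiv.swap_apply_of_ne_of_ne (e.injective.ne hli) (e.injective.ne hlj),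
        Equiv.swap_apply_of_ne_of_ne (e.injective.ne hli) (e.injective.ne hlk)]
  let p : Fin 5 → Fin 5 → V := fun i j => (e i).1 * (e j).1
  have hpc : ∀ i j, p i j = p j i := fun i j => mul_comm _ _
  have hsq : ∀ x : V, x * x = 1 := fun x => by rw [← pow_two, hV]
  have hp1 : ∀ i j, i ≠ j → p i j ≠ 1 := by
    intro i j hij h
    refine hij (e.injective (Subtype.ext ?_))
    exact mul_right_cancel (h.trans (hsq _).symm)
  -- all pair products have one value
  have hpq : ∀ i j k, i ≠ j → i ≠ k → q (p i j) = q (p i k) := by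
    intro i j k hij hik
    by_cases hjk : j = k
    · rw [hjk]
    obtain ⟨l, hlj, hlk, hli⟩ : ∃ l : Fin 5, l ≠ j ∧ l ≠ k ∧ l ≠ i := by
      revert i j k
      decide
    obtain ⟨g, h1, -, -, hfixg⟩ := hcyc j k l hjk hlj.symm hlk.symm
    calc q (p i j) = q (ρ g (p i j)) := (hinv _ _).symm
      _ = q (p i k) := by
        show q (ρ g ((e i).1 * (e j).1)) = _
        rw [map_mul, h1, hfixg i hij hik hli.symm]
  have hconst : ∀ i j, i ≠ j → q (p i j) = q (p 0 1) := by
    intro i j hij
    by_cases hi : i = 0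
    · subst hi
      exact hpq 0 j 1 hij (by decide)
    · rw [hpq i j 0 hij hi, hpc]
      exact hpq 0 i 1 (Ne.symm hi) (by decide)
  have hw : q (p 0 1) ≠ 1 := fun h => hp1 0 1 (by decide) (haniso _ h)
  have hdisj : ∀ i j k l, i ≠ j → k ≠ l → p i j = p k l → (i = k ∧ j = l) ∨ (i = l ∧ j = k) := by
    intro i j k l hij hkl h
    by_contra hne
    have hik : i ≠ k := by
      rintro rfl
      exact hne (Or.inl ⟨rfl, e.injective (Subtype.ext (mul_left_cancel h))⟩)
    have hil : i ≠ l := by
      rintro rfl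
      rw [hpc k i] at h
      exact hne (Or.inr ⟨rfl, e.injective (Subtype.ext (mul_left_cancel h))⟩)
    have hjk : j ≠ k := by
      rintro rfl
      rw [hpc i j] at h
      exact hil (e.injective (Subtype.ext (mul_left_cancel h)))
    have hjl : j ≠ l := by
      rintro rfl
      exact hik (e.injective (Subtype.ext (mul_right_cancel h)))
    obtain ⟨m, hmi, hmj, hmk, hml⟩ : ∃ m : Fin 5, m ≠ i ∧ m ≠ j ∧ m ≠ k ∧ m ≠ l := by
      clear h hne
      revert i j k l
      decide
    obtain ⟨g, h1, h2, -, hfixg⟩ := hcyc k l m hkl hmk.symm hml.symm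
    have h3 : ρ g (p i j) = ρ g (p k l) := by rw [h]
    have h4 : p i j = p l m := by
      have e1 : ρ g (p i j) = p i j := by
        show ρ g ((e i).1 * (e j).1) = _
        rw [map_mul, hfixg i hik hil hmi.symm, hfixg j hjk hjl hmj.symm]
      have e2 : ρ g (p k l) = p l m := by
        show ρ g ((e k).1 * (e l).1) = _
        rw [map_mul, h1, h2]
      rw [← e1, h3, e2]
    rw [h, hpc k l] at h4
    exact hmk (e.injective (Subtype.ext (mul_left_cancel h4))).symm
  let P6 : Fin 6 → Fin 5 × Fin 5 := ![(0, 1), (0, 2), (0, 3), (0, 4), (1, 2), (1, 3)]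
  have hP6 : ∀ t, (P6 t).1 < (P6 t).2 := by decide
  let F : Fin 6 → {x : V // q x = q (p 0 1)} :=
    fun t => ⟨p (P6 t).1 (P6 t).2, hconst _ _ (hP6 t).ne⟩
  have hinj : Function.Injective F := by
    intro s t hst
    have hP6i : Function.Injective P6 := by decide
    apply hP6i
    rcases hdisj _ _ _ _ (hP6 s).ne (hP6 t).ne (congrArg Subtype.val hst) with ⟨h1, h2⟩ | ⟨h1, h2⟩
    · exact Prod.ext h1 h2
    · exfalso
      have h3 := hP6 s
      rw [h1, h2] at h3
      exact lt_asymm h3 (hP6 t)
  have h6 := Nat.card_le_card_of_injective F hinj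
  rw [hcls _ hw, Nat.card_fin] at h6
  omega

end Cfsg.Agent.Transfer.AutThree
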