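import Cfsg.Agent.S0493

/-! Perfect groups of small order are trivial. -/

set_option autoImplicit false

namespace Cfsg.Agent.Transfer.AutThree

open Subgroup hiding commutator_def

theorem perfect_small_aux : ∀ n : ℕ, ∀ {G : Type*} [Group G] [Finite G],
    Nat.card G = n → n < 60 → commutator G = ⊤ → Subsingleton G := by
  intro n
  induction n using Nat.strong_induction_on with
  | _ n ih =>
    intro G _ _ hn h60 hperf
    by_contra hns
    rw [not_subsingleton_iff_nontrivial] at hns
    by_cases hsimp : ∀ H : Subgroup G, H.Normal → H = ⊥ ∨ H = ⊤
    · haveI : IsSimpleGroup G := ⟨hsimp⟩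
      have hnc : ¬ IsCyclic G := by
        intro hc
        have hb : commutator G = ⊥ := by
          rw [commutator_def, eq_bot_iff, commutator_le]
          intro a _ b _
          rw [mem_bot, commutatorElement_eq_one_iff_mul_comm]
          obtain ⟨g, hg⟩ := IsCyclic.exists_generator (α := G)
          obtain ⟨i, rfl⟩ := hg a
          obtain ⟨j, rfl⟩ := hg b
          exact (((Commute.refl g).zpow_left i).zpow_right j).eq
        exact bot_ne_top (hb.symm.trans hperf)
      have := Cfsg.Agent.S0493.result hnc (by omega)
      omega
    · push Not at hsimp
      obtain ⟨N, hN, hN1, hN2⟩ := hsimp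
      haveI := hN
      have hidx : N.index < n := by
        have h1 := N.card_mul_index
        have h2 : 1 < Nat.card N := by
          haveI : Nontrivial N := N.nontrivial_iff_ne_bot.2 hN1
          exact Finite.one_lt_card
        have h3 : N.index ≠ 0 := N.index_ne_zero_of_finite
        rw [hn] at h1
        have h4 : 2 * N.index ≤ Nat.card N * N.index := Nat.mul_le_mul_right _ h2
        omega
      have hq : commutator (G ⧸ N) = ⊤ := by
        rw [commutator_def]
        have h1 := map_commutator (⊤ : Subgroup G) ⊤ (QuotientGroup.mk' N)
        rw [← commutator_def, hperf, map_top_of_surjective _ (QuotientGroup.mk'_surjective N)] at h1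
        exact h1.symm
      have := ih N.index hidx (G := G ⧸ N) N.index_eq_card.symm (by omega) hq
      have : N.index = 1 := by
        rw [index_eq_card]
        exact Nat.card_of_subsingleton (QuotientGroup.mk' N 1)
      exact hN2 (index_eq_one.1 this)

/-- a homomorphism from a perfect group to a finite group of order less than 60 is trivial -/
theorem hom_trivial_of_small {L H : Type*} [Group L] [Group H] [Finite H] (hL : commutator L = ⊤)
    (f : L →* H) (h : Nat.card f.range < 60) : ∀ x, f x = 1 := by
  have hp : commutator f.range = ⊤ := by
    rw [commutator_def]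
    have h1 := map_commutator (⊤ : Subgroup L) ⊤ f.rangeRestrict
    rw [← commutator_def, hL, map_top_of_surjective _ f.rangeRestrict_surjective] at h1
    exact h1.symm
  have := perfect_small_aux _ rfl h hp
  intro x
  have h1 : f.rangeRestrict x = 1 := Subsingleton.elim _ _
  exact congrArg Subtype.val h1

/-- a homomorphism from a perfect group to the permutations of at most four points is trivial -/
theorem perm_trivial_of_le_four {L α : Type*} [Group L] [Finite α] (hL : commutator L = ⊤)
    (f : L →* Equiv.Perm α) (h : Nat.card α ≤ 4) : ∀ x, f x = 1 := by
  refine hom_trivial_of_small hL f ?_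
  have h1 : Nat.card f.range ≤ Nat.card (Equiv.Perm α) :=
    Nat.card_le_card_of_injective _ (Subtype.val_injective)
  rw [Nat.card_perm] at h1
  have h2 := Nat.factorial_le h
  have h3 : Nat.factorial 4 = 24 := rfl
  omega

/-- a finite group all of whose perfect subgroups are trivial is solvable -/
theorem solvable_of_no_perfect {G : Type*} [Group G] [Finite G]
    (h : ∀ L : Subgroup G, commutator L = ⊤ → L = ⊥) : Group.IsSolvable G := by
  rw [Group.isSolvable_def]
  have hdec : ∀ n, derivedSeries G (n + 1) ≤ derivedSeries G n := fun n =>
    derivedSeries_antitone _ (Nat.le_succ n)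
  by_contra hcon
  push Not at hcon
  have key : ∀ n, Nat.card (derivedSeries G n) + n ≤ Nat.card G := by
    intro n
    induction n with
    | zero => simp
    | succ n ih =>
      have hne : derivedSeries G (n + 1) ≠ derivedSeries G n := by
        intro heq
        refine hcon n (h _ ?_)
        apply map_injective (subtype_injective (derivedSeries G n))
        rw [map_subtype_commutator, ← MonoidHom.range_eq_map, range_subtype]
        exact heq
      have hlt : Nat.card (derivedSeries G (n + 1)) < Nat.card (derivedSeries G n) := by
        refine lt_of_le_of_ne (Subgroup.card_le_of_le (hdec n)) ?_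
        exact fun he => hne (eq_of_le_of_card_ge (hdec n) he.ge)
      omega
  have := key (Nat.card G + 1)
  omega

end Cfsg.Agent.Transfer.AutThree
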